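import Mathlib
import Cfsg.Agent.Lib.Helper81.CS3.Defs

/-!
# CS3 (S4284): shared basics

* [B2] `centralizer_mul_of_coprime`
* [B3] `cent_le_of_max`
* [B4] `relIndex_of_coprime`, `index_mem`, `index_le`
* [B6] `fpf_abstract`, `fpf_subgroup` (the fixed-point-free lemma)
-/

set_option autoImplicit false

namespace Cfsg.Agent.Lib.Helper24.CS3

open Cfsg.Agent.Lib.Helper81.CS3

universe u

section basics

variable {G : Type u} [Group G]

/-- for commuting elements of coprime (finite) orders, `x` is a power of `x * y` -/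
theorem exists_zpow_eq_left [Finite G] (x y : G) (hc : Commute x y)
    (hco : (orderOf x).Coprime (orderOf y)) : ∃ z : ℤ, (x * y) ^ z = x := by
  have hb := Nat.gcd_eq_gcd_ab (orderOf x) (orderOf y)
  rw [hco.gcd_eq_one] at hb
  refine ⟨(orderOf y : ℤ) * Nat.gcdB (orderOf x) (orderOf y), ?_⟩
  rw [hc.mul_zpow]
  have h1 : y ^ ((orderOf y : ℤ) * Nat.gcdB (orderOf x) (orderOf y)) = 1 := by
    rw [zpow_mul, zpow_natCast, pow_orderOf_eq_one, one_zpow]
  have h3 : x ^ ((orderOf y : ℤ) * Nat.gcdB (orderOf x) (orderOf y)) = x := by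
    have h4 : ((orderOf y : ℤ) * Nat.gcdB (orderOf x) (orderOf y)) =
        1 - (orderOf x : ℤ) * Nat.gcdA (orderOf x) (orderOf y) := by
      have : ((1 : ℕ) : ℤ) = 1 := rfl
      linarith
    rw [h4, zpow_sub, zpow_one, zpow_mul, zpow_natCast, pow_orderOf_eq_one, one_zpow, inv_one,
      mul_one]
  rw [h1, h3, mul_one]

/-- [B2] -/
theorem centralizer_mul_of_coprime [Finite G] (x y : G) (hc : Commute x y)
    (hco : (orderOf x).Coprime (orderOf y)) :
    Subgroup.centralizer ({x * y} : Set G) =
      Subgroup.centralizer ({x} : Set G) ⊓ Subgroup.centralizer ({y} : Set G) := by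
  apply le_antisymm
  · intro g hg
    rw [Subgroup.mem_centralizer_singleton_iff] at hg
    have hgc : Commute g (x * y) := hg
    obtain ⟨z, hz⟩ := exists_zpow_eq_left x y hc hco
    obtain ⟨z', hz'⟩ := exists_zpow_eq_left y x hc.symm hco.symm
    rw [← hc.eq] at hz'
    rw [Subgroup.mem_inf]
    refine ⟨?_, ?_⟩
    · rw [Subgroup.mem_centralizer_singleton_iff]
      have := hgc.zpow_right z
      rw [hz] at this
      exact this
    · rw [Subgroup.mem_centralizer_singleton_iff]
      have := hgc.zpow_right z'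
      rw [hz'] at this
      exact this
  · intro g hg
    rw [Subgroup.mem_inf] at hg
    obtain ⟨hgx, hgy⟩ := hg
    rw [Subgroup.mem_centralizer_singleton_iff] at hgx hgy ⊢
    have h1 : Commute g x := hgx
    have h3 : Commute g y := hgy
    exact h1.mul_right h3

/-- [B3] an element of maximal class size: its centralizer centralizes the commuting elements
of coprime order -/
theorem cent_le_of_max [Finite G] {N : ℕ}
    (hmax : ∀ g : G, (Subgroup.centralizer ({g} : Set G)).index ≤ N) (w y : G)
    (hw : (Subgroup.centralizer ({w} : Set G)).index = N) (hc : Commute w y)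
    (hco : (orderOf w).Coprime (orderOf y)) :
    Subgroup.centralizer ({w} : Set G) ≤ Subgroup.centralizer ({y} : Set G) := by
  have h1 := centralizer_mul_of_coprime w y hc hco
  have h3 := hmax (w * y)
  rw [h1] at h3
  have h4 := Subgroup.relIndex_mul_index
    (inf_le_left : Subgroup.centralizer ({w} : Set G) ⊓ Subgroup.centralizer ({y} : Set G) ≤
      Subgroup.centralizer ({w} : Set G))
  rw [hw] at h4
  have hN : N ≠ 0 := by
    rw [← hw]
    exact Subgroup.index_ne_zero_of_finite
  have h5 : (Subgroup.centralizer ({w} : Set G) ⊓ Subgroup.centralizer ({y} : Set G)).relIndex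
      (Subgroup.centralizer ({w} : Set G)) = 1 := by
    have h6 : (Subgroup.centralizer ({w} : Set G) ⊓
        Subgroup.centralizer ({y} : Set G)).relIndex (Subgroup.centralizer ({w} : Set G)) ≠ 0 := by
      intro h0
      rw [h0, zero_mul] at h4
      exact Subgroup.index_ne_zero_of_finite h4.symm
    rw [← h4] at h3
    have hNpos : 0 < N := Nat.pos_of_ne_zero hN
    nlinarith [Nat.pos_of_ne_zero h6]
  rw [Subgroup.relIndex_eq_one] at h5
  exact h5.trans inf_le_right

/-- every class size is `1`, `m` or `m * n` -/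
theorem index_mem {m n : ℕ} (hyp : Hyp G m n) (x : G) :
    (Subgroup.centralizer ({x} : Set G)).index = 1 ∨
      (Subgroup.centralizer ({x} : Set G)).index = m ∨
      (Subgroup.centralizer ({x} : Set G)).index = m * n := by
  have h : (Subgroup.centralizer ({x} : Set G)).index ∈
      Set.range (fun x : G => (Subgroup.centralizer ({x} : Set G)).index) := ⟨x, rfl⟩
  rw [hyp.2.2.2.2] at h
  simpa using h

/-- every class size is at most `m * n` -/
theorem index_le {m n : ℕ} (hyp : Hyp G m n) (x : G) :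
    (Subgroup.centralizer ({x} : Set G)).index ≤ m * n := by
  have hm := hyp.2.1
  have hn := hyp.2.2.1
  rcases index_mem hyp x with h | h | h
  · rw [h]; nlinarith
  · rw [h]; nlinarith
  · rw [h]

/-- [B4] -/
theorem relIndex_of_coprime [Finite G] {m n : ℕ} (hyp : Hyp G m n) (a y : G)
    (ha : (Subgroup.centralizer ({a} : Set G)).index = m) (hc : Commute a y)
    (hco : (orderOf a).Coprime (orderOf y)) :
    (Subgroup.centralizer ({y} : Set G)).relIndex (Subgroup.centralizer ({a} : Set G)) = 1 ∨
      (Subgroup.centralizer ({y} : Set G)).relIndex (Subgroup.centralizer ({a} : Set G)) = n := by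
  have hm := hyp.2.1
  have h1 := centralizer_mul_of_coprime a y hc hco
  have h4 := Subgroup.relIndex_mul_index
    (inf_le_left : Subgroup.centralizer ({a} : Set G) ⊓ Subgroup.centralizer ({y} : Set G) ≤
      Subgroup.centralizer ({a} : Set G))
  rw [inf_comm, Subgroup.inf_relIndex_right, inf_comm, ← h1, ha] at h4
  rcases index_mem hyp (a * y) with h | h | h
  · rw [h] at h4
    have := Nat.eq_one_of_mul_eq_one_left h4
    omega
  · rw [h] at h4
    left
    have hmpos : 0 < m := by omega
    nlinarith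
  · rw [h] at h4
    right
    have hmpos : 0 < m := by omega
    have h5 : (Subgroup.centralizer ({y} : Set G)).relIndex
        (Subgroup.centralizer ({a} : Set G)) * m = n * m := by rw [h4, mul_comm]
    exact Nat.eq_of_mul_eq_mul_right hmpos h5

end basics

section fpf

variable {E V : Type*} [Group E] [CommGroup V] [MulDistribMulAction E V]

/-- powers indexed by `ZMod s` -/
def pw (s : ℕ) (e : E) (i : ZMod s) : E := e ^ i.val

theorem pw_add (s : ℕ) [NeZero s] (e : E) (he : e ^ s = 1) (i j : ZMod s) :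
    pw s e (i + j) = pw s e i * pw s e j := by
  unfold pw
  rw [ZMod.val_add, ← pow_eq_pow_mod _ he, pow_add]

theorem pw_mul (s : ℕ) [NeZero s] (e : E) (he : e ^ s = 1) (i j : ZMod s) :
    pw s (pw s e i) j = pw s e (i * j) := by
  unfold pw
  rw [ZMod.val_mul, ← pow_eq_pow_mod _ he, pow_mul]

theorem pw_zero (s : ℕ) (e : E) : pw s e 0 = 1 := by
  unfold pw
  rw [ZMod.val_zero, pow_zero]

theorem pw_one (s : ℕ) [Fact (1 < s)] (e : E) : pw s e 1 = e := by
  unfold pw
  rw [ZMod.val_one, pow_one]

/-- the norm over the cyclic group generated by `e` -/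
noncomputable def T (s : ℕ) [NeZero s] (e : E) (v : V) : V := ∏ k : ZMod s, pw s e k • v

theorem smul_T (s : ℕ) [NeZero s] [Fact (1 < s)] (e : E) (he : e ^ s = 1) (v : V) :
    e • T s e v = T s e v := by
  unfold T
  rw [Finset.smul_prod']
  have h1 : ∀ k : ZMod s, e • pw s e k • v = pw s e (k + 1) • v := by
    intro k
    rw [pw_add s e he, pw_one, smul_smul]
    congr 1
    unfold pw
    exact (pow_mul_comm' e _).symm
  simp only [h1]
  exact Equiv.prod_comp (Equiv.addRight (1 : ZMod s)) (fun k => pw s e k • v)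

/-- [B6] the fixed-point-free lemma, abstract form -/
theorem fpf_abstract [Finite E] [Finite V] (s : ℕ) [Fact s.Prime]
    (hexp : ∀ e : E, e ^ s = 1) (hcomm : ∀ e e' : E, e * e' = e' * e)
    (hs : ¬ s ∣ Nat.card V) (V0 : Subgroup V) (hV0 : V0 ≠ ⊤)
    (hfix : ∀ e : E, e ≠ 1 → ∀ v : V, e • v = v → v ∈ V0) : Nat.card E ≤ s := by
  classical
  by_contra hcard
  push Not at hcard
  have hsp : s.Prime := Fact.out
  haveI : Fact (1 < s) := ⟨hsp.one_lt⟩
  haveI : NeZero s := ⟨hsp.ne_zero⟩
  -- `a ≠ 1` and `b ∉ ⟨a⟩`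
  haveI : Nontrivial E := by
    rw [← Finite.one_lt_card_iff_nontrivial]
    exact lt_trans hsp.one_lt hcard
  obtain ⟨a, ha⟩ := exists_ne (1 : E)
  have hoa : orderOf a = s := orderOf_eq_prime (hexp a) ha
  obtain ⟨b, hb⟩ : ∃ b : E, b ∉ Subgroup.zpowers a := by
    by_contra hcon
    push Not at hcon
    have htop : Subgroup.zpowers a = ⊤ := (Subgroup.eq_top_iff' _).mpr hcon
    have h1 : Nat.card (Subgroup.zpowers a) = s := by rw [Nat.card_zpowers, hoa]
    rw [htop, Subgroup.card_top] at h1
    omega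
  have hb1 : b ≠ 1 := fun h => hb (h ▸ Subgroup.one_mem _)
  -- the elements `a * b^j` are nontrivial
  have hab : ∀ j : ZMod s, a * pw s b j ≠ 1 := by
    intro j h
    by_cases hj : j = 0
    · rw [hj, pw_zero, mul_one] at h
      exact ha h
    · have h1 : pw s b j = a⁻¹ := by
        rw [← mul_right_inj a, h, mul_inv_cancel]
      have h3 : pw s (pw s b j) j⁻¹ = b := by
        rw [pw_mul s b (hexp b), mul_inv_cancel₀ hj, pw_one]
      apply hb
      rw [← h3, h1]
      unfold pw
      exact Subgroup.pow_mem _ (Subgroup.inv_mem _ (Subgroup.mem_zpowers a)) _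
  -- all `s`-th powers lie in `V0`
  have hpow : ∀ v : V, v ^ s ∈ V0 := by
    intro v
    -- the norm over `⟨a, b⟩`
    have hNfix : a • (∏ k : ZMod s, ∏ j : ZMod s, (pw s a k * pw s b j) • v) =
        ∏ k : ZMod s, ∏ j : ZMod s, (pw s a k * pw s b j) • v := by
      rw [Finset.smul_prod']
      have h1 : ∀ k : ZMod s, a • (∏ j : ZMod s, (pw s a k * pw s b j) • v) =
          ∏ j : ZMod s, (pw s a (k + 1) * pw s b j) • v := by
        intro k
        rw [Finset.smul_prod']
        refine Finset.prod_congr rfl fun j _ => ?_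
        rw [smul_smul, pw_add s a (hexp a), pw_one, ← mul_assoc]
        congr 2
        exact hcomm _ _
      simp only [h1]
      exact Equiv.prod_comp (Equiv.addRight (1 : ZMod s))
        (fun k => ∏ j : ZMod s, (pw s a k * pw s b j) • v)
    have hN : (∏ k : ZMod s, ∏ j : ZMod s, (pw s a k * pw s b j) • v) ∈ V0 :=
      hfix a ha _ hNfix
    have hT1 : ∀ j : ZMod s, T s (a * pw s b j) v ∈ V0 := fun j =>
      hfix _ (hab j) _ (smul_T s _ (hexp _) v)
    have hT2 : T s b v ∈ V0 := hfix b hb1 _ (smul_T s b (hexp b) v)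
    -- the identity
    have hpwab : ∀ j k : ZMod s, pw s (a * pw s b j) k = pw s a k * pw s b (j * k) := by
      intro j k
      rw [← pw_mul s b (hexp b)]
      unfold pw
      exact (Commute.mul_pow (hcomm _ _) _)
    have hid : (∏ j : ZMod s, T s (a * pw s b j) v) * T s b v =
        v ^ s * ∏ k : ZMod s, ∏ j : ZMod s, (pw s a k * pw s b j) • v := by
      have h1 : (∏ j : ZMod s, T s (a * pw s b j) v) =
          ∏ k : ZMod s, ∏ j : ZMod s, (pw s a k * pw s b (j * k)) • v := by
        unfold T
        rw [Finset.prod_comm]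
        refine Finset.prod_congr rfl fun k _ => Finset.prod_congr rfl fun j _ => ?_
        rw [hpwab]
      have h3 : ∀ k : ZMod s, k ≠ 0 → (∏ j : ZMod s, (pw s a k * pw s b (j * k)) • v) =
          ∏ j : ZMod s, (pw s a k * pw s b j) • v := by
        intro k hk
        exact Equiv.prod_comp (Equiv.mulRight₀ k hk) (fun j => (pw s a k * pw s b j) • v)
      have h4 : (∏ j : ZMod s, (pw s a 0 * pw s b (j * 0)) • v) = v ^ s := by
        simp only [mul_zero, pw_zero, mul_one, one_smul, Finset.prod_const, Finset.card_univ,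
          ZMod.card]
      have h5 : T s b v = ∏ j : ZMod s, (pw s a 0 * pw s b j) • v := by
        unfold T
        simp only [pw_zero, one_mul]
      rw [h1, ← Finset.mul_prod_erase Finset.univ _ (Finset.mem_univ (0 : ZMod s)), h4,
        ← Finset.mul_prod_erase Finset.univ
          (fun k => ∏ j : ZMod s, (pw s a k * pw s b j) • v) (Finset.mem_univ (0 : ZMod s)), h5]
      have h6 : (∏ k ∈ Finset.univ.erase (0 : ZMod s),
          ∏ j : ZMod s, (pw s a k * pw s b (j * k)) • v) =
          ∏ k ∈ Finset.univ.erase (0 : ZMod s), ∏ j : ZMod s, (pw s a k * pw s b j) • v :=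
        Finset.prod_congr rfl fun k hk => h3 k (Finset.ne_of_mem_erase hk)
      rw [h6]
      ac_rfl
    have hL : (∏ j : ZMod s, T s (a * pw s b j) v) * T s b v ∈ V0 :=
      V0.mul_mem (Subgroup.prod_mem V0 fun j _ => hT1 j) hT2
    rw [hid] at hL
    exact (Subgroup.mul_mem_cancel_right V0 hN).mp hL
  -- every element is an `s`-th power
  apply hV0
  rw [Subgroup.eq_top_iff']
  intro v
  have hcop : (Nat.card V).Coprime s := by
    rw [Nat.coprime_comm]
    exact (Nat.Prime.coprime_iff_not_dvd hsp).mpr hs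
  obtain ⟨w, hw⟩ := (powCoprime hcop).surjective v
  rw [← hw]
  exact hpow w

/-- [B6] the fixed-point-free lemma inside a group -/
theorem fpf_subgroup {G : Type*} [Group G] [Finite G] (s : ℕ) [Fact s.Prime] (E V V0 : Subgroup G)
    (hexp : ∀ e ∈ E, e ^ s = 1) (hcomm : ∀ e ∈ E, ∀ e' ∈ E, e * e' = e' * e)
    (hVc : ∀ a ∈ V, ∀ b ∈ V, a * b = b * a) (hnorm : ∀ e ∈ E, ∀ v ∈ V, e * v * e⁻¹ ∈ V)
    (hs : ¬ s ∣ Nat.card V) (hle : V0 ≤ V) (hne : V0 ≠ V)
    (hfix : ∀ e ∈ E, e ≠ 1 → ∀ v ∈ V, e * v * e⁻¹ = v → v ∈ V0) : Nat.card E ≤ s := by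
  letI : CommGroup V :=
    { (inferInstance : Group V) with
      mul_comm := fun a b => Subtype.ext (hVc a a.2 b b.2) }
  letI : SMul E V := ⟨fun e v => ⟨e * v * (e : G)⁻¹, hnorm e e.2 v v.2⟩⟩
  have hsmul : ∀ (e : E) (v : V), ((e • v : V) : G) = e * v * (e : G)⁻¹ := fun _ _ => rfl
  letI : MulDistribMulAction E V :=
    { one_smul := fun v => Subtype.ext (by rw [hsmul]; simp)
      mul_smul := fun e e' v => Subtype.ext (by rw [hsmul, hsmul, hsmul]; simp [mul_assoc])
      smul_mul := fun e v w => Subtype.ext (by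
        rw [hsmul, Subgroup.coe_mul, Subgroup.coe_mul, hsmul, hsmul]; simp [mul_assoc])
      smul_one := fun e => Subtype.ext (by rw [hsmul]; simp) }
  refine fpf_abstract (E := E) (V := V) s (fun e => Subtype.ext (by simpa using hexp e e.2))
    (fun e e' => Subtype.ext (hcomm e e.2 e' e'.2)) hs (V0.subgroupOf V) ?_ ?_
  · intro htop
    rw [Subgroup.subgroupOf_eq_top] at htop
    exact hne (le_antisymm hle htop)
  · intro e he v hv
    rw [Subgroup.mem_subgroupOf]
    refine hfix e e.2 (fun h => he (Subtype.ext h)) v v.2 ?_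
    exact congrArg Subtype.val hv

end fpf

end Cfsg.Agent.Lib.Helper24.CS3
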