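import Mathlib
import Cfsg.Agent.Lib.Helper67.SylowLemmas
import Cfsg.Agent.Lib.Helper41.CS3.GoodDefs

/-!
# CS3 (S4284), part GOOD: packages [COVER], [SYLOW], [MSB]
-/

set_option autoImplicit false

namespace Cfsg.Agent.Lib.Helper24.CS3

open Cfsg.Agent.Lib.Helper41.CS3

universe u

/-- **[COVER]** a finite group is not the union of the conjugates of a proper subgroup -/
theorem pkgCover : PkgCover.{u} := by
  intro G _ _ H hH
  by_contra hcon
  push Not at hcon
  apply hH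
  apply Cfsg.Agent.Lib.Helper67.eq_top_of_forall_exists_conj_mem H
  intro x
  obtain ⟨g, hg⟩ := hcon x
  exact ⟨g⁻¹, by rwa [inv_inv]⟩

/-- **[SYLOW]** a `p`-subgroup is conjugate into any subgroup of index prime to `p` -/
theorem pkgSylow : PkgSylow.{u} := by
  intro G _ _ p hp K H hK hH
  have hpF : Fact p.Prime := ⟨hp⟩
  obtain ⟨P⟩ : Nonempty (Sylow p H) := inferInstance
  have hQp : IsPGroup p ((P : Subgroup H).map H.subtype) := P.isPGroup'.map _
  have hQi : ¬ p ∣ ((P : Subgroup H).map H.subtype).index := by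
    rw [Subgroup.index_map_subtype]
    exact Nat.Prime.not_dvd_mul hp P.not_dvd_index hH
  obtain ⟨R, hR⟩ := hK.exists_le_sylow
  obtain ⟨c, hc⟩ := MulAction.exists_smul_eq G R (hQp.toSylow hQi)
  refine ⟨c, fun x hx => ?_⟩
  have h1 : c * x * c⁻¹ ∈ ((c • R : Sylow p G) : Subgroup G) := by
    rw [Cfsg.Agent.Lib.Helper67.mem_smul_sylow_iff]
    have : c⁻¹ * (c * x * c⁻¹) * c = x := by group
    rw [this]
    exact hR hx
  rw [hc, IsPGroup.toSylow_coe] at h1
  obtain ⟨q, -, hq⟩ := h1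
  rw [← hq]
  exact q.2

/-- **[MSB]** counting: `s ^ 2 ∣ m` and `i(y) = m n` give `s ^ 2 ∣ |S : C_S(y)|` -/
theorem pkgMsb : PkgMsb.{u} := by
  intro G _ _ m n s hs S y hy hsq
  have hsF : Fact s.Prime := ⟨hs⟩
  -- `|C_S(y)| * |S : C_S(y)| = |S|`
  have h1 := Subgroup.relIndex_mul_relIndex (⊥ : Subgroup G) (Cn y ⊓ (S : Subgroup G))
    (S : Subgroup G) bot_le inf_le_right
  rw [Subgroup.relIndex_bot_left, Subgroup.relIndex_bot_left, Subgroup.inf_relIndex_right] at h1
  have hScard : Nat.card (S : Subgroup G) = s ^ (Nat.card G).factorization s :=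
    S.card_eq_multiplicity
  -- `C_S(y)` is an `s`-group inside `C(y)`
  have hp : IsPGroup s (Cn y ⊓ (S : Subgroup G) : Subgroup G) :=
    S.isPGroup'.to_le inf_le_right
  obtain ⟨b, hb⟩ := IsPGroup.iff_card.mp hp
  have h2 : s ^ b ∣ Nat.card (Cn y) := hb ▸ Subgroup.card_dvd_of_le inf_le_left
  have h3 := Subgroup.card_mul_index (Cn y)
  have hy' : (Cn y).index = m * n := hy
  rw [hy'] at h3
  -- `s ^ (b + 2) ∣ |G|`
  have h4 : s ^ (b + 2) ∣ Nat.card G := by
    rw [← h3, pow_add]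
    exact Nat.mul_dvd_mul h2 (hsq.mul_right n)
  have h5 : b + 2 ≤ (Nat.card G).factorization s :=
    (Nat.Prime.pow_dvd_iff_le_factorization hs Nat.card_pos.ne').mp h4
  rw [hb, hScard] at h1
  obtain ⟨c, hc⟩ := Nat.exists_eq_add_of_le h5
  have h6 : (Cn y).relIndex (S : Subgroup G) = s ^ (2 + c) := by
    have hpos : 0 < s ^ b := pow_pos hs.pos b
    apply Nat.eq_of_mul_eq_mul_left hpos
    rw [h1, hc, ← pow_add]
    congr 1
    omega
  rw [h6, pow_add]
  exact dvd_mul_right _ _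

end Cfsg.Agent.Lib.Helper24.CS3
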