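import Mathlib
import Cfsg.Agent.Lib.Helper24.CS3.Basics
import Cfsg.Agent.Lib.Helper41.CS3.GoodDefs

/-!
# CS3 (S4284), part GOOD: package [MS] (the fixed-point-free argument)
-/

set_option autoImplicit false

namespace Cfsg.Agent.Lib.Helper24.CS3

open Cfsg.Agent.Lib.Helper41.CS3

universe u

/-- the `s'`-elements of an abelian centralizer -/
def sPrimePart {G : Type u} [Group G] (s : ℕ) (y : G) (hab : Ab (Cn y)) : Subgroup G where
  carrier := {v | v ∈ Cn y ∧ (orderOf v).Coprime s}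
  mul_mem' := by
    rintro a b ⟨ha, ha'⟩ ⟨hb, hb'⟩
    refine ⟨(Cn y).mul_mem ha hb, ?_⟩
    have hc : Commute a b := hab a ha b hb
    exact Nat.Coprime.coprime_dvd_left hc.orderOf_mul_dvd_lcm
      (Nat.Coprime.coprime_dvd_left (Nat.lcm_dvd_mul _ _) (Nat.Coprime.mul_left ha' hb'))
  one_mem' := ⟨(Cn y).one_mem, by rw [orderOf_one]; exact Nat.coprime_one_left s⟩
  inv_mem' := by
    rintro a ⟨ha, ha'⟩
    exact ⟨(Cn y).inv_mem ha, by rwa [orderOf_inv]⟩

/-- **[MS]** -/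
theorem pkgMs : PkgMs.{u} := by
  intro G _ _ s s2 hs hs2 hne S y hab hnrm hpow hcomm hcent hu hsq
  obtain ⟨u, huC, ⟨ku, hku⟩, hunc⟩ := hu
  have hsF : Fact s.Prime := ⟨hs⟩
  obtain ⟨V, hV⟩ : ∃ V : Subgroup G, ∀ v, v ∈ V ↔ (v ∈ Cn y ∧ (orderOf v).Coprime s) :=
    ⟨sPrimePart s y hab, fun v => Iff.rfl⟩
  have hVle : V ≤ Cn y := fun v hv => ((hV v).mp hv).1
  have huV : u ∈ V := (hV u).mpr ⟨huC, by
    rw [hku]; exact Nat.Coprime.pow_left _ ((Nat.coprime_primes hs2 hs).mpr hne)⟩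
  letI : CommGroup V :=
    { (inferInstance : Group V) with
      mul_comm := fun a b => Subtype.ext (hab a (hVle a.2) b (hVle b.2)) }
  have hconjV : ∀ σ ∈ S, ∀ v ∈ V, σ * v * σ⁻¹ ∈ V := by
    intro σ hσ v hv
    rw [hV] at hv ⊢
    refine ⟨hnrm σ hσ v hv.1, ?_⟩
    have h1 : orderOf (σ * v * σ⁻¹) = orderOf v := (MulAut.conj σ).orderOf_eq v
    rw [h1]
    exact hv.2
  letI : SMul S V := ⟨fun e v => ⟨e * v * (e : G)⁻¹, hconjV e e.2 v v.2⟩⟩
  have hsmul : ∀ (e : S) (v : V), ((e • v : V) : G) = e * v * (e : G)⁻¹ := fun _ _ => rfl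
  letI : MulDistribMulAction S V :=
    { one_smul := fun v => Subtype.ext (by rw [hsmul]; simp)
      mul_smul := fun e e' v => Subtype.ext (by rw [hsmul, hsmul, hsmul]; simp [mul_assoc])
      smul_mul := fun e v w => Subtype.ext (by
        rw [hsmul, Subgroup.coe_mul, Subgroup.coe_mul, hsmul, hsmul]; simp [mul_assoc])
      smul_one := fun e => Subtype.ext (by rw [hsmul]; simp) }
  obtain ⟨φ, hφ⟩ : ∃ φ : S →* MulAut V, ∀ (σ : S) (v : V), φ σ v = σ • v :=
    ⟨MulDistribMulAction.toMulAut S V, fun _ _ => rfl⟩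
  -- elements of `C_S(y)` act trivially
  have htriv : ∀ τ : S, (τ : G) ∈ Cn y → φ τ = 1 := by
    intro τ hτ
    apply MulEquiv.ext
    intro v
    apply Subtype.ext
    rw [hφ, hsmul, MulAut.one_apply, hab τ hτ v (hVle v.2), mul_inv_cancel_right]
  -- elements acting trivially lie in `C_S(y)`
  have hker : ∀ τ : S, φ τ = 1 → (τ : G) ∈ Cn y := by
    intro τ hτ
    have h1 : φ τ ⟨u, huV⟩ = ⟨u, huV⟩ := by rw [hτ, MulAut.one_apply]
    rw [hφ] at h1
    have h2 := congrArg Subtype.val h1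
    rw [hsmul] at h2
    have h3 : (τ : G) ∈ Cn u := by
      rw [Subgroup.mem_centralizer_singleton_iff]
      exact mul_inv_eq_iff_eq_mul.mp h2
    rw [hcent u huC hunc] at h3
    exact h3
  have hfin : Finite φ.range := Finite.of_surjective φ.rangeRestrict φ.rangeRestrict_surjective
  have hexp : ∀ e : φ.range, e ^ s = 1 := by
    rintro ⟨e, σ, rfl⟩
    apply Subtype.ext
    show (φ σ) ^ s = 1
    rw [← map_pow]
    exact htriv _ (hpow σ σ.2)
  have hcommE : ∀ e e' : φ.range, e * e' = e' * e := by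
    rintro ⟨e, σ, rfl⟩ ⟨e', τ, rfl⟩
    apply Subtype.ext
    show φ σ * φ τ = φ τ * φ σ
    have h1 : φ (σ * τ * σ⁻¹ * τ⁻¹) = 1 := htriv _ (hcomm σ σ.2 τ τ.2)
    rw [map_mul, map_mul, map_mul, map_inv, map_inv, mul_inv_eq_one, mul_inv_eq_iff_eq_mul] at h1
    exact h1
  have hsV : ¬ s ∣ Nat.card V := by
    intro hdvd
    obtain ⟨x, hx⟩ := exists_prime_orderOf_dvd_card' (G := V) s hdvd
    have h1 := ((hV x).mp x.2).2
    rw [Subgroup.orderOf_coe, hx, Nat.coprime_self] at h1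
    exact hs.one_lt.ne' h1
  have hV0 : (Subgroup.center G).subgroupOf V ≠ ⊤ := by
    intro h
    have h1 : (⟨u, huV⟩ : V) ∈ (Subgroup.center G).subgroupOf V := h ▸ Subgroup.mem_top _
    rw [Subgroup.mem_subgroupOf] at h1
    exact hunc h1
  have hfix : ∀ e : φ.range, e ≠ 1 → ∀ v : V, e • v = v →
      v ∈ (Subgroup.center G).subgroupOf V := by
    rintro ⟨e, σ, rfl⟩ he v hv
    rw [Subgroup.mem_subgroupOf]
    by_contra hvc
    apply he
    apply Subtype.ext
    show φ σ = 1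
    apply htriv
    rw [← hcent v (hVle v.2) hvc]
    have h1 : φ σ v = v := hv
    rw [hφ] at h1
    have h2 := congrArg Subtype.val h1
    rw [hsmul] at h2
    rw [Subgroup.mem_centralizer_singleton_iff]
    exact mul_inv_eq_iff_eq_mul.mp h2
  have hcard := fpf_abstract (E := φ.range) (V := V) s hexp hcommE hsV _ hV0 hfix
  -- `|S : C_S(y)|` divides `|E|`
  have hle : φ.ker ≤ (Cn y).subgroupOf S := by
    intro τ hτ
    rw [Subgroup.mem_subgroupOf]
    exact hker τ (MonoidHom.mem_ker.mp hτ)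
  have h1 : ((Cn y).subgroupOf S).index ∣ φ.ker.index := Subgroup.index_dvd_of_le hle
  rw [Subgroup.index_ker] at h1
  have h2 : s ^ 2 ∣ Nat.card φ.range := hsq.trans h1
  have h3 := Nat.le_of_dvd Nat.card_pos h2
  have h4 := hs.one_lt
  nlinarith

end Cfsg.Agent.Lib.Helper24.CS3
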